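import Cfsg.Prelude.Def_Classical
import Cfsg.Agent.Eq.Def_Classical

/-!
# The orthogonal group of dimension `2m+1` in characteristic two

`isometryGroup_quadFormOdd_equiv`: over a finite field of characteristic two it is isomorphic to the
symplectic group of dimension `2m`, by passing to the quotient by the radical.
-/

set_option autoImplicit false

namespace CfsgLib.OrthTwo

open Matrix

variable {m : ℕ} {F : Type*} [Field F]

/-- The alternating form attached to `quadFormPlus`. -/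
def altForm (u v : Fin m ⊕ Fin m → F) : F :=
  ∑ i : Fin m, (u (.inl i) * v (.inr i) + u (.inr i) * v (.inl i))

theorem altForm_eq [CharP F 2] (u v : Fin m ⊕ Fin m → F) :
    u ⬝ᵥ (J (Fin m) F *ᵥ v) = altForm u v := by
  have hJ : J (Fin m) F = fromBlocks 0 1 1 0 := by
    rw [Matrix.J]
    congr 1
    ext i j
    exact CharTwo.neg_eq _
  rw [hJ, altForm, dotProduct, Fintype.sum_sum_type, Finset.sum_add_distrib]
  simp [Matrix.fromBlocks_mulVec]

theorem mem_symplectic_iff [CharP F 2] (A : Matrix (Fin m ⊕ Fin m) (Fin m ⊕ Fin m) F) :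
    A ∈ symplecticGroup (Fin m) F ↔ ∀ u v, altForm (A *ᵥ u) (A *ᵥ v) = altForm u v := by
  have key : ∀ u v, altForm (A *ᵥ u) (A *ᵥ v) = u ⬝ᵥ ((Aᵀ * J (Fin m) F * A) *ᵥ v) := by
    intro u v
    rw [← altForm_eq, ← mulVec_mulVec v (Aᵀ * J (Fin m) F) A,
      ← mulVec_mulVec (A *ᵥ v) Aᵀ (J (Fin m) F), dotProduct_mulVec u Aᵀ, vecMul_transpose]
  rw [SymplecticGroup.mem_iff']
  constructor
  · intro h u v
    rw [key, h, altForm_eq]
  · intro h
    ext i j
    have := h (Pi.single i 1) (Pi.single j 1)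
    rw [key, ← altForm_eq] at this
    simpa using this

theorem quadFormPlus_add (u v : Fin m ⊕ Fin m → F) :
    Cfsg.quadFormPlus m F (u + v)
      = Cfsg.quadFormPlus m F u + Cfsg.quadFormPlus m F v + altForm u v := by
  simp only [Cfsg.quadFormPlus, altForm, ← Finset.sum_add_distrib, Pi.add_apply]
  exact Finset.sum_congr rfl fun i _ => by ring

theorem quadFormPlus_smul (c : F) (u : Fin m ⊕ Fin m → F) :
    Cfsg.quadFormPlus m F (c • u) = c ^ 2 * Cfsg.quadFormPlus m F u := by
  simp only [Cfsg.quadFormPlus, Finset.mul_sum, Pi.smul_apply, smul_eq_mul]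
  exact Finset.sum_congr rfl fun i _ => by ring

theorem quadFormOdd_eq (v : Unit ⊕ (Fin m ⊕ Fin m) → F) :
    Cfsg.quadFormOdd m F v = v (.inl ()) ^ 2 + Cfsg.quadFormPlus m F (v ∘ Sum.inr) := rfl

/-- The radical vector. -/
def radVec : Unit ⊕ (Fin m ⊕ Fin m) → F := Pi.single (.inl ()) 1

theorem mem_isometry_iff {g : GeneralLinearGroup (Unit ⊕ (Fin m ⊕ Fin m)) F} :
    g ∈ Cfsg.isometryGroup F (Cfsg.quadFormOdd m F) ↔
      ∀ v, Cfsg.quadFormOdd m F (g.val *ᵥ v) = Cfsg.quadFormOdd m F v :=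
  ⟨fun h v => h v 0, fun h u _ => h u⟩

variable [CharP F 2]

theorem quadFormOdd_add (u v : Unit ⊕ (Fin m ⊕ Fin m) → F) :
    Cfsg.quadFormOdd m F (u + v) = Cfsg.quadFormOdd m F u + Cfsg.quadFormOdd m F v
      + altForm (u ∘ Sum.inr) (v ∘ Sum.inr) := by
  simp only [quadFormOdd_eq, Pi.add_apply]
  rw [show (u + v) ∘ Sum.inr = u ∘ Sum.inr + v ∘ Sum.inr from rfl, quadFormPlus_add, CharTwo.add_sq]
  ring

/-- An isometry preserves the alternating form. -/
theorem altForm_of_isometry {g : GeneralLinearGroup (Unit ⊕ (Fin m ⊕ Fin m)) F}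
    (hg : g ∈ Cfsg.isometryGroup F (Cfsg.quadFormOdd m F)) (u v : Unit ⊕ (Fin m ⊕ Fin m) → F) :
    altForm ((g.val *ᵥ u) ∘ Sum.inr) ((g.val *ᵥ v) ∘ Sum.inr)
      = altForm (u ∘ Sum.inr) (v ∘ Sum.inr) := by
  have h := (mem_isometry_iff.mp hg) (u + v)
  rw [mulVec_add, quadFormOdd_add, quadFormOdd_add, mem_isometry_iff.mp hg, mem_isometry_iff.mp hg]
    at h
  exact add_left_cancel h

theorem altForm_single_inl (w : Fin m ⊕ Fin m → F) (i : Fin m) :
    altForm w (Pi.single (.inl i) 1) = w (.inr i) := by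
  simp [altForm, Pi.single_apply]

theorem altForm_single_inr (w : Fin m ⊕ Fin m → F) (i : Fin m) :
    altForm w (Pi.single (.inr i) 1) = w (.inl i) := by
  simp [altForm, Pi.single_apply]

/-- An isometry fixes the radical vector. -/
theorem apply_radVec {g : GeneralLinearGroup (Unit ⊕ (Fin m ⊕ Fin m)) F}
    (hg : g ∈ Cfsg.isometryGroup F (Cfsg.quadFormOdd m F)) :
    g.val *ᵥ radVec = radVec := by
  set w := g.val *ᵥ radVec with hw
  have hzero : ∀ y, altForm (w ∘ Sum.inr) y = 0 := by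
    intro y
    have hy : (g.val *ᵥ ((g⁻¹).val *ᵥ
        Sum.elim (fun _ => (0 : F)) y)) ∘ Sum.inr = y := by
      rw [mulVec_mulVec, ← Units.val_mul, mul_inv_cancel, Units.val_one, one_mulVec]
      exact Sum.elim_comp_inr _ _
    have h0 : (radVec : Unit ⊕ (Fin m ⊕ Fin m) → F) ∘ Sum.inr = 0 := by
      funext j
      simp [radVec]
    rw [← hy, hw, altForm_of_isometry hg, h0]
    simp [altForm]
  have hw0 : ∀ j, w (.inr j) = 0 := by
    rintro (i | i)
    · simpa using (altForm_single_inr (w ∘ Sum.inr) i).symm.trans (hzero _)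
    · simpa using (altForm_single_inl (w ∘ Sum.inr) i).symm.trans (hzero _)
  have hq := (mem_isometry_iff.mp hg) radVec
  rw [← hw, quadFormOdd_eq, quadFormOdd_eq, show w ∘ Sum.inr = 0 from funext hw0,
    show (radVec : Unit ⊕ (Fin m ⊕ Fin m) → F) ∘ Sum.inr = 0 from funext fun j => by simp [radVec]]
    at hq
  have h1 : w (.inl ()) ^ 2 = 1 := by simpa [Cfsg.quadFormPlus, radVec] using hq
  funext k
  rcases k with ⟨⟩ | k
  · have h2 : (w (.inl ()) + 1) ^ 2 = 0 := by
      rw [CharTwo.add_sq, h1, one_pow, CharTwo.add_self_eq_zero]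
    simpa [radVec] using CharTwo.add_eq_zero.mp (pow_eq_zero_iff (two_ne_zero) |>.mp h2)
  · rw [hw0 k]; simp [radVec]

theorem column_rad {g : GeneralLinearGroup (Unit ⊕ (Fin m ⊕ Fin m)) F}
    (hg : g ∈ Cfsg.isometryGroup F (Cfsg.quadFormOdd m F)) (j : Fin m ⊕ Fin m) :
    g.val (.inr j) (.inl ()) = 0 := by
  have := congrFun (apply_radVec hg) (.inr j)
  simpa [radVec] using this

/-- The map induced on the quotient by the radical. -/
def toSymplectic :
    Cfsg.isometryGroup F (Cfsg.quadFormOdd m F) →* symplecticGroup (Fin m) F where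
  toFun g := ⟨g.1.val.toBlocks₂₂, by
    rw [mem_symplectic_iff]
    intro u v
    have key : ∀ x : Fin m ⊕ Fin m → F,
        (g.1.val *ᵥ
          Sum.elim (fun _ => (0 : F)) x) ∘ Sum.inr
        = g.1.val.toBlocks₂₂ *ᵥ x := by
      intro x
      funext i
      simp [mulVec, dotProduct, Fintype.sum_sum_type, toBlocks₂₂]
    rw [← key, ← key, altForm_of_isometry g.2]
    simp⟩
  map_one' := Subtype.ext (by
    ext i j
    simp [toBlocks₂₂, Matrix.one_apply])
  map_mul' g h := Subtype.ext (by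
    ext i j
    simp [toBlocks₂₂, Matrix.mul_apply, Fintype.sum_sum_type, column_rad g.2 i])

theorem toSymplectic_apply (g : Cfsg.isometryGroup F (Cfsg.quadFormOdd m F))
    (i j : Fin m ⊕ Fin m) : (toSymplectic g).1 i j = g.1.val (.inr i) (.inr j) := rfl

theorem toSymplectic_injective : Function.Injective (toSymplectic (m := m) (F := F)) := by
  rw [← MonoidHom.ker_eq_bot_iff, Subgroup.eq_bot_iff_forall]
  intro g hg
  have hA : ∀ i j, g.1.val
      (.inr i) (.inr j) = if i = j then 1 else 0 := fun i j => by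
    rw [← toSymplectic_apply, MonoidHom.mem_ker.mp hg, OneMemClass.coe_one, Matrix.one_apply]
  have hrad := apply_radVec g.2
  apply Subtype.ext
  apply Units.ext
  ext a b
  rcases b with ⟨⟩ | b
  · have := congrFun hrad a
    simpa [radVec, Matrix.one_apply, Pi.single_apply, eq_comm] using this
  rcases a with ⟨⟩ | a
  · set v : Unit ⊕ (Fin m ⊕ Fin m) → F := Pi.single (.inr b) 1
    have hq := (mem_isometry_iff.mp g.2) v
    rw [quadFormOdd_eq, quadFormOdd_eq] at hq
    have h1 : (g.1.val *ᵥ v) ∘ Sum.inr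
        = v ∘ Sum.inr := by
      funext i
      simp [v, hA, Pi.single_apply, eq_comm]
    rw [h1] at hq
    have h2 := add_right_cancel hq
    simp [v] at h2
    simpa [Matrix.one_apply] using h2
  · rw [hA]
    simp [Matrix.one_apply]

variable [Fintype F]

theorem toSymplectic_surjective : Function.Surjective (toSymplectic (m := m) (F := F)) := by
  classical
  rintro ⟨A, hA⟩
  have hsq : ∀ c : F, ∃ r : F, r ^ 2 = c := fun c => by
    obtain ⟨r, hr⟩ := FiniteField.isSquare_of_char_two (ringChar.eq F 2) c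
    exact ⟨r, by rw [pow_two, ← hr]⟩
  choose root hroot using hsq
  let d : (Fin m ⊕ Fin m → F) → F := fun u =>
    Cfsg.quadFormPlus m F u + Cfsg.quadFormPlus m F (A *ᵥ u)
  have hadd : ∀ u v, d (u + v) = d u + d v := by
    intro u v
    simp only [d, mulVec_add, quadFormPlus_add, (mem_symplectic_iff A).mp hA u v]
    linear_combination (CharTwo.add_self_eq_zero (altForm u v))
  have hsmul : ∀ (c : F) u, d (c • u) = c ^ 2 * d u := by
    intro c u
    simp only [d, mulVec_smul, quadFormPlus_smul]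
    ring
  let lam : Matrix Unit (Fin m ⊕ Fin m) F := Matrix.of fun _ j => root (d (Pi.single j 1))
  let dHom : (Fin m ⊕ Fin m → F) →+ F := AddMonoidHom.mk' d hadd
  have hd : ∀ u, (lam *ᵥ u) () ^ 2 = d u := by
    intro u
    rw [mulVec, dotProduct, CharTwo.sum_sq]
    calc ∑ j, (lam () j * u j) ^ 2 = ∑ j, d (u j • (Pi.single j (1 : F) : Fin m ⊕ Fin m → F)) :=
          Finset.sum_congr rfl fun j _ => by
            rw [mul_pow, hsmul, mul_comm]
            congr 1
            exact hroot _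
    _ = d (∑ j, u j • (Pi.single j (1 : F) : Fin m ⊕ Fin m → F)) := (map_sum dHom _ _).symm
    _ = d u := by rw [← pi_eq_sum_univ' u]
  let M : Matrix (Unit ⊕ (Fin m ⊕ Fin m)) (Unit ⊕ (Fin m ⊕ Fin m)) F := fromBlocks 1 lam 0 A
  have hdet : IsUnit M.det := by
    rw [det_fromBlocks_zero₂₁, det_one, one_mul]
    exact SymplecticGroup.symplectic_det hA
  refine ⟨⟨GeneralLinearGroup.mk'' M hdet, mem_isometry_iff.mpr fun v => ?_⟩, Subtype.ext ?_⟩
  · show Cfsg.quadFormOdd m F (M *ᵥ v) = _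
    have hd' := hd (v ∘ Sum.inr)
    have h1 : (M *ᵥ v) (.inl ()) = v (.inl ()) + (lam *ᵥ (v ∘ Sum.inr)) () := by
      simp [M, fromBlocks_mulVec]
    have h2 : (M *ᵥ v) ∘ Sum.inr = A *ᵥ (v ∘ Sum.inr) := by
      funext i
      simp [M, fromBlocks_mulVec]
    rw [quadFormOdd_eq, quadFormOdd_eq, h1, h2, CharTwo.add_sq, hd']
    simp only [d]
    linear_combination CharTwo.add_self_eq_zero (Cfsg.quadFormPlus m F (A *ᵥ (v ∘ Sum.inr)))
  · exact toBlocks_fromBlocks₂₂ 1 lam 0 A

/-- `O_{2m+1}(q) ≅ Sp_{2m}(q)` for even `q`. -/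
theorem isometryGroup_quadFormOdd_equiv :
    Nonempty (Cfsg.isometryGroup F (Cfsg.quadFormOdd m F) ≃* symplecticGroup (Fin m) F) :=
  ⟨MulEquiv.ofBijective _ ⟨toSymplectic_injective, toSymplectic_surjective⟩⟩

end CfsgLib.OrthTwo
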